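import Mathlib
import Cfsg.Agent.Lib.SchurCert.Lift
import Cfsg.Prelude.Def_KGroupFacts

/-!
# A central extension from a Cayley graph

A cocycle on the edges of a Cayley graph with values in a finite abelian group `A` gives permutations
of `V × A`.  If they commute with a second family of maps (the right multiplications), they generate a
central extension of the group by `A`, acting regularly on `V × A`.
-/

set_option autoImplicit false

namespace Cfsg.Agent.Lib.SchurCert.Cover

open Cfsg Cfsg.Agent.Lib.SchurCert.Elim Cfsg.Agent.Lib.SchurCert.Lift Subgroup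

/-- The sum of the cocycle along a walk, in codes. -/
noncomputable def wAdd (nx : Nat → Nat → Nat) (add : Nat → Nat → Nat) (idc : Nat) (kc : Nat → Nat → Nat)
    (w : List Nat) : Nat → Nat :=
  List.rec (motive := fun _ => Nat → Nat) (fun _ => idc)
    (fun g _ ih v => add (kc v g) (ih (nx v g))) w

/-- Everything the kernel has to check. -/
structure Cert {A : Type} [CommGroup A] (nV : Nat) (nx rx kc lc : Nat → Nat → Nat) (rp rr : Nat → Nat)
    (add : Nat → Nat → Nat) (idc : Nat) (dec : Nat → A) (o : Nat → Nat) : Prop where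
  hnV : 0 < nV
  nx_lt : ∀ v g, v < nV → g < 2 → nx v g < nV
  rx_lt : ∀ v g, v < nV → g < 2 → rx v g < nV
  dec_add : ∀ a b, dec (add a b) = dec a * dec b
  dec_id : dec idc = 1
  comm : ∀ v g h, v < nV → g < 2 → h < 2 → rx (nx v g) h = nx (rx v h) g ∧
    add (kc v g) (lc (nx v g) h) = add (lc v h) (kc (rx v h) g)
  ord_pos : ∀ g, g < 2 → 0 < o g
  ord : ∀ v g, v < nV → g < 2 → wEnd nx (List.replicate (o g) g) v = v ∧
    dec (wAdd nx add idc kc (List.replicate (o g) g) v) = 1
  rtree : ∀ v, 0 < v → v < nV → parV rp v < nV ∧ rx (parV rp v) (pgV rp v) = v ∧ rr (parV rp v) < rr v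

section

variable {A : Type} [CommGroup A] [Finite A] {nV : Nat} {nx rx kc lc : Nat → Nat → Nat} {rp rr : Nat → Nat}
  {add : Nat → Nat → Nat} {idc : Nat} {dec : Nat → A} {o : Nat → Nat}

/-- The set of the permutation action. -/
abbrev XX (A : Type) (nV : Nat) : Type := Fin nV × A

/-- The maps of the generators. -/
def F (C : Cert nV nx rx kc lc rp rr add idc dec o) (g : Nat) (hg : g < 2) (x : XX A nV) : XX A nV :=
  (⟨nx x.1.1 g, C.nx_lt _ _ x.1.2 hg⟩, x.2 * dec (kc x.1.1 g))

/-- The right multiplications. -/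
def R (C : Cert nV nx rx kc lc rp rr add idc dec o) (h : Nat) (hh : h < 2) (x : XX A nV) : XX A nV :=
  (⟨rx x.1.1 h, C.rx_lt _ _ x.1.2 hh⟩, x.2 * dec (lc x.1.1 h))

theorem F_R (C : Cert nV nx rx kc lc rp rr add idc dec o) {g h : Nat} (hg : g < 2) (hh : h < 2) (x : XX A nV) :
    F C g hg (R C h hh x) = R C h hh (F C g hg x) := by
  obtain ⟨h1, h2⟩ := C.comm x.1.1 g h x.1.2 hg hh
  have h3 := congrArg dec h2
  rw [C.dec_add, C.dec_add] at h3
  apply Prod.ext
  · apply Fin.ext
    exact h1.symm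
  · show x.2 * dec (lc x.1.1 h) * dec (kc (rx x.1.1 h) g) = x.2 * dec (kc x.1.1 g) * dec (lc (nx x.1.1 g) h)
    rw [mul_assoc, mul_assoc, h3]

/-- The iterate of the maps along a word. -/
def act (C : Cert nV nx rx kc lc rp rr add idc dec o) : (w : List Nat) → (∀ g ∈ w, g < 2) → XX A nV → XX A nV
  | [], _, x => x
  | g :: w, h, x => act C w (fun g' hg' => h g' (List.mem_cons_of_mem _ hg')) (F C g (h g List.mem_cons_self) x)

theorem act_fst (C : Cert nV nx rx kc lc rp rr add idc dec o) (w : List Nat) (hw : ∀ g ∈ w, g < 2) (x : XX A nV) :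
    (act C w hw x).1.1 = wEnd nx w x.1.1 ∧ (act C w hw x).2 = x.2 * dec (wAdd nx add idc kc w x.1.1) := by
  induction w generalizing x with
  | nil =>
    refine ⟨rfl, ?_⟩
    show x.2 = x.2 * dec idc
    rw [C.dec_id, mul_one]
  | cons g w ih =>
    obtain ⟨h1, h2⟩ := ih (fun g' hg' => hw g' (List.mem_cons_of_mem _ hg')) (F C g (hw g List.mem_cons_self) x)
    refine ⟨h1, ?_⟩
    rw [act, h2]
    show x.2 * dec (kc x.1.1 g) * dec (wAdd nx add idc kc w (nx x.1.1 g)) =
      x.2 * dec (add (kc x.1.1 g) (wAdd nx add idc kc w (nx x.1.1 g)))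
    rw [C.dec_add, mul_assoc]

theorem F_bijective (C : Cert nV nx rx kc lc rp rr add idc dec o) {g : Nat} (hg : g < 2) :
    Function.Bijective (F C g hg) := by
  have : Finite (XX A nV) := inferInstance
  rw [← Finite.injective_iff_bijective]
  have hw : ∀ g' ∈ List.replicate (o g) g, g' < 2 := by
    intro g' hg'
    rw [List.eq_of_mem_replicate hg']
    exact hg
  -- the iterate along the word is the identity
  have h1 : ∀ x, act C _ hw x = x := by
    intro x
    obtain ⟨h2, h3⟩ := act_fst C _ hw x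
    obtain ⟨h4, h5⟩ := C.ord x.1.1 g x.1.2 hg
    apply Prod.ext
    · apply Fin.ext
      rw [h2, h4]
    · rw [h3, h5, mul_one]
  obtain ⟨n, hn⟩ : ∃ n, o g = n + 1 := ⟨o g - 1, by have := C.ord_pos g hg; omega⟩
  intro x y hxy
  have h2 := h1 x
  have h3 := h1 y
  revert hw h1 h2 h3
  rw [hn]
  intro hw h1 h2 h3
  simp only [List.replicate_succ, act] at h2 h3
  rw [← h2, ← h3]
  congr 1

/-- The permutations of the generators. -/
noncomputable def gX (C : Cert nV nx rx kc lc rp rr add idc dec o) (g : Nat) (hg : g < 2) : Equiv.Perm (XX A nV) :=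
  Equiv.ofBijective (F C g hg) (F_bijective C hg)

@[simp] theorem gX_apply (C : Cert nV nx rx kc lc rp rr add idc dec o) (g : Nat) (hg : g < 2) (x : XX A nV) :
    gX C g hg x = F C g hg x := rfl

/-- The translations. -/
def tau (nV : Nat) (c : A) : Equiv.Perm (XX A nV) := Equiv.prodCongr (Equiv.refl _) (Equiv.mulLeft c)

@[simp] theorem tau_apply (c : A) (x : XX A nV) : tau nV c x = (x.1, c * x.2) := rfl

theorem tau_mul (c d : A) : tau nV (c * d) = tau nV c * tau nV d := by
  ext x <;> simp [mul_assoc]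

theorem tau_one : tau nV (1 : A) = 1 := by
  ext x <;> simp

/-- The group generated by the generators. -/
noncomputable def GG (C : Cert nV nx rx kc lc rp rr add idc dec o) : Subgroup (Equiv.Perm (XX A nV)) :=
  closure {γ | ∃ g, ∃ hg : g < 2, γ = gX C g hg}

/-- The permutations commuting with everything that should be central. -/
def Comm (C : Cert nV nx rx kc lc rp rr add idc dec o) : Subgroup (Equiv.Perm (XX A nV)) where
  carrier := {γ | (∀ c x, γ (tau nV c x) = tau nV c (γ x)) ∧ ∀ h hh x, γ (R C h hh x) = R C h hh (γ x)}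
  mul_mem' := by
    intro a b ha hb
    refine ⟨fun c x => ?_, fun h hh x => ?_⟩
    · show a (b _) = _
      rw [hb.1, ha.1]
      rfl
    · show a (b _) = _
      rw [hb.2, ha.2]
      rfl
  one_mem' := ⟨fun _ _ => rfl, fun _ _ _ => rfl⟩
  inv_mem' := by
    intro a ha
    refine ⟨fun c x => ?_, fun h hh x => ?_⟩
    · rw [Equiv.Perm.inv_eq_iff_eq, ha.1]
      simp
    · rw [Equiv.Perm.inv_eq_iff_eq, ha.2]
      simp

theorem GG_le_Comm (C : Cert nV nx rx kc lc rp rr add idc dec o) : GG C ≤ Comm C := by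
  unfold GG
  rw [closure_le]
  rintro γ ⟨g, hg, rfl⟩
  refine ⟨fun c x => ?_, fun h hh x => ?_⟩
  · apply Prod.ext
    · rfl
    · show c * x.2 * dec (kc x.1.1 g) = c * (x.2 * dec (kc x.1.1 g))
      rw [mul_assoc]
  · exact F_R C hg hh x

/-- The base point. -/
def x0 (C : Cert nV nx rx kc lc rp rr add idc dec o) : XX A nV := (⟨0, C.hnV⟩, 1)

/-- **Regularity**: an element commuting with the right multiplications and fixing the base point is trivial. -/
theorem eq_one_of_fix (C : Cert nV nx rx kc lc rp rr add idc dec o) {γ : Equiv.Perm (XX A nV)} (hγ : γ ∈ Comm C)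
    (h : γ (x0 C) = x0 C) : γ = 1 := by
  have h0 : ∀ c, γ (⟨0, C.hnV⟩, c) = (⟨0, C.hnV⟩, c) := by
    intro c
    have h1 := hγ.1 c (x0 C)
    have h2 : tau nV c (x0 C) = (⟨0, C.hnV⟩, c) := by
      apply Prod.ext
      · rfl
      · exact mul_one c
    rw [h2, h, h2] at h1
    exact h1
  have key : ∀ n (v : Nat) (hv : v < nV), rr v = n → ∀ c, γ (⟨v, hv⟩, c) = (⟨v, hv⟩, c) := by
    intro n
    induction n using Nat.strong_induction_on with
    | _ n ih =>
      intro v hv hn c
      rcases Nat.eq_zero_or_pos v with rfl | h1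
      · exact h0 c
      · obtain ⟨h2, h3, h4⟩ := C.rtree v h1 hv
        have hpg := pgV_lt rp v
        have h5 : (⟨v, hv⟩, c) = R C (pgV rp v) hpg (⟨parV rp v, h2⟩, c * (dec (lc (parV rp v) (pgV rp v)))⁻¹) := by
          apply Prod.ext
          · apply Fin.ext
            exact h3.symm
          · show c = c * (dec (lc (parV rp v) (pgV rp v)))⁻¹ * dec (lc (parV rp v) (pgV rp v))
            group
        rw [h5, hγ.2, ih _ (by omega) _ h2 rfl]
  ext1 x
  obtain ⟨⟨v, hv⟩, c⟩ := x
  exact key _ v hv rfl c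

theorem tau_mem_Comm (C : Cert nV nx rx kc lc rp rr add idc dec o) (c : A) : tau nV c ∈ Comm C := by
  refine ⟨fun d x => ?_, fun h hh x => ?_⟩
  · apply Prod.ext
    · rfl
    · show c * (d * x.2) = d * (c * x.2)
      rw [mul_left_comm]
  · apply Prod.ext
    · rfl
    · show c * (x.2 * dec (lc x.1.1 h)) = c * x.2 * dec (lc x.1.1 h)
      rw [mul_assoc]

/-- An element of the commuting group with the base point moved in the fibre is a translation. -/
theorem eq_tau (C : Cert nV nx rx kc lc rp rr add idc dec o) {γ : Equiv.Perm (XX A nV)} (hγ : γ ∈ Comm C) {c : A}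
    (h : γ (x0 C) = (⟨0, C.hnV⟩, c)) : γ = tau nV c := by
  have h1 : (tau nV c)⁻¹ * γ = 1 := by
    apply eq_one_of_fix C ((Comm C).mul_mem ((Comm C).inv_mem (tau_mem_Comm C c)) hγ)
    show (tau nV c)⁻¹ (γ (x0 C)) = x0 C
    rw [h, Equiv.Perm.inv_eq_iff_eq]
    apply Prod.ext
    · rfl
    · exact (mul_one c).symm
  exact (inv_mul_eq_one.mp h1).symm

/-! ### The homomorphism to the group -/

variable {G : Type*} [Group G]

/-- The data of the group. -/
structure GroupData (C : Cert nV nx rx kc lc rp rr add idc dec o) (G : Type*) [Group G] (gG : Nat → G) (f : Nat → G) : Prop where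
  f0 : f 0 = 1
  edge : ∀ v g, v < nV → g < 2 → f (nx v g) = gG g * f v
  gen : closure {gG 0, gG 1} = ⊤
  inj : ∀ v, v < nV → f v = 1 → v = 0

/-- The subgroup of permutations compatible with a left multiplication. -/
def Compat (f : Nat → G) : Subgroup (Equiv.Perm (XX A nV)) where
  carrier := {γ | ∃ a : G, ∀ x : XX A nV, f (γ x).1.1 = a * f x.1.1}
  mul_mem' := by
    rintro γ δ ⟨a, ha⟩ ⟨b, hb⟩
    refine ⟨a * b, fun x => ?_⟩
    show f (γ (δ x)).1.1 = _
    rw [ha, hb, mul_assoc]
  one_mem' := ⟨1, fun x => by simp⟩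
  inv_mem' := by
    rintro γ ⟨a, ha⟩
    refine ⟨a⁻¹, fun x => ?_⟩
    have h1 := ha (γ⁻¹ x)
    have h2 : γ (γ⁻¹ x) = x := by simp
    rw [h2] at h1
    rw [h1, inv_mul_cancel_left]

variable {C : Cert nV nx rx kc lc rp rr add idc dec o} {gG f : Nat → G} {N : Nat}

theorem GG_le_Compat (D : GroupData C G gG f) : GG C ≤ Compat (A := A) (nV := nV) f := by
  unfold GG
  rw [closure_le]
  rintro γ ⟨g, hg, rfl⟩
  exact ⟨gG g, fun x => D.edge _ _ x.1.2 hg⟩

theorem compat_at (D : GroupData C G gG f) {γ : Equiv.Perm (XX A nV)} (hγ : γ ∈ GG C) (x : XX A nV) :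
    f (γ x).1.1 = f (γ (x0 C)).1.1 * f x.1.1 := by
  obtain ⟨a, ha⟩ := GG_le_Compat D hγ
  have h1 := ha (x0 C)
  have h2 : f (x0 C).1.1 = 1 := D.f0
  rw [h2, mul_one] at h1
  rw [ha, h1]

/-- The homomorphism to the group. -/
noncomputable def sig (D : GroupData C G gG f) : GG C →* G where
  toFun γ := f (γ.1 (x0 C)).1.1
  map_one' := D.f0
  map_mul' := by
    intro γ δ
    show f (γ.1 (δ.1 (x0 C))).1.1 = _
    rw [compat_at D γ.2]

theorem sig_gen (D : GroupData C G gG f) (g : Nat) (hg : g < 2) :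
    sig D ⟨gX C g hg, subset_closure ⟨g, hg, rfl⟩⟩ = gG g := by
  show f (nx 0 g) = gG g
  rw [D.edge 0 g C.hnV hg, D.f0, mul_one]

theorem sig_surj (D : GroupData C G gG f) : Function.Surjective (sig D) := by
  have h1 : (sig D).range = ⊤ := by
    rw [eq_top_iff, ← D.gen, closure_le]
    rintro x (rfl | rfl)
    · exact ⟨_, sig_gen D 0 (by decide)⟩
    · exact ⟨_, sig_gen D 1 (by decide)⟩
  exact MonoidHom.range_eq_top.mp h1

theorem ker_sig (D : GroupData C G gG f) (γ : GG C) : γ ∈ (sig D).ker ↔ ∃ c : A, γ.1 = tau nV c := by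
  constructor
  · intro h
    have h1 : f (γ.1 (x0 C)).1.1 = 1 := h
    have h2 := D.inj _ (γ.1 (x0 C)).1.2 h1
    refine ⟨(γ.1 (x0 C)).2, ?_⟩
    apply eq_tau C (GG_le_Comm C γ.2)
    apply Prod.ext
    · exact Fin.ext h2
    · rfl
  · rintro ⟨c, hc⟩
    show f (γ.1 (x0 C)).1.1 = 1
    rw [hc]
    exact D.f0

/-! ### Words -/

theorem gX_mem (C : Cert nV nx rx kc lc rp rr add idc dec o) (g : Nat) (hg : g < 2) : gX C g hg ∈ GG C :=
  subset_closure ⟨g, hg, rfl⟩

/-- The generators, as a function on numbers. -/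
noncomputable def genX (C : Cert nV nx rx kc lc rp rr add idc dec o) (g : Nat) : Equiv.Perm (XX A nV) :=
  if hg : g < 2 then gX C g hg else 1

theorem evalW_apply (C : Cert nV nx rx kc lc rp rr add idc dec o) (w : List Nat) (hw : ∀ g ∈ w, g < 2) (x : XX A nV) :
    evalW (genX C) w x = act C w hw x := by
  induction w generalizing x with
  | nil => rfl
  | cons g w ih =>
    have hg := hw g List.mem_cons_self
    show (evalW (genX C) w * genX C g) x = _
    rw [Equiv.Perm.mul_apply, ih (fun g' hg' => hw g' (List.mem_cons_of_mem _ hg')), act]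
    congr 1
    unfold genX
    rw [dif_pos hg]
    rfl

theorem evalW_mem (C : Cert nV nx rx kc lc rp rr add idc dec o) (w : List Nat) (hw : ∀ g ∈ w, g < 2) :
    evalW (genX C) w ∈ GG C := by
  induction w with
  | nil => exact (GG C).one_mem
  | cons g w ih =>
    have hg := hw g List.mem_cons_self
    show evalW (genX C) w * genX C g ∈ GG C
    apply (GG C).mul_mem (ih (fun g' hg' => hw g' (List.mem_cons_of_mem _ hg')))
    unfold genX
    rw [dif_pos hg]
    exact gX_mem C g hg

/-- A closed word is a translation. -/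
theorem tau_of_word (C : Cert nV nx rx kc lc rp rr add idc dec o) (w : List Nat) (hw : ∀ g ∈ w, g < 2)
    (h0 : wEnd nx w 0 = 0) : tau nV (dec (wAdd nx add idc kc w 0)) ∈ GG C := by
  have h1 : evalW (genX C) w = tau nV (dec (wAdd nx add idc kc w 0)) := by
    apply eq_tau C (GG_le_Comm C (evalW_mem C w hw))
    rw [evalW_apply C w hw]
    obtain ⟨h2, h3⟩ := act_fst C w hw (x0 C)
    apply Prod.ext
    · apply Fin.ext
      rw [h2]
      exact h0
    · rw [h3]
      exact one_mul _
  rw [← h1]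
  exact evalW_mem C w hw

theorem gX_pow (C : Cert nV nx rx kc lc rp rr add idc dec o) {g : Nat} (hg : g < 2) : gX C g hg ^ o g = 1 := by
  have hw : ∀ g' ∈ List.replicate (o g) g, g' < 2 := by
    intro g' hg'
    rw [List.eq_of_mem_replicate hg']
    exact hg
  have h1 : evalW (genX C) (List.replicate (o g) g) = gX C g hg ^ o g := by
    have e : gX C g hg = genX C g := by
      unfold genX
      rw [dif_pos hg]
    rw [e]
    generalize o g = n
    induction n with
    | zero => simp [evalW]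
    | succ n ih =>
      rw [List.replicate_succ, evalW, ih, pow_succ]
  rw [← h1]
  ext1 x
  rw [evalW_apply C _ hw]
  obtain ⟨h2, h3⟩ := act_fst C _ hw x
  obtain ⟨h4, h5⟩ := C.ord x.1.1 g x.1.2 hg
  apply Prod.ext
  · apply Fin.ext
    rw [h2, h4]
    rfl
  · rw [h3, h5, mul_one]
    rfl

theorem tau_pow (c : A) (n : Nat) : tau nV (c ^ n) = tau nV c ^ n := by
  induction n with
  | zero => rw [pow_zero, pow_zero, tau_one]
  | succ n ih => rw [pow_succ, pow_succ, tau_mul, ih]

/-- Powers and the commutator subgroup. -/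
theorem pow_mem_commutator (C : Cert nV nx rx kc lc rp rr add idc dec o) (hord : ∀ g, g < 2 → o g ∣ N)
    (γ : GG C) : γ ^ N ∈ _root_.commutator (GG C) := by
  rw [← Abelianization.ker_of, MonoidHom.mem_ker, map_pow]
  obtain ⟨γ, hγ⟩ := γ
  induction hγ using Subgroup.closure_induction with
  | mem x hx =>
    obtain ⟨g, hg, rfl⟩ := hx
    obtain ⟨t, ht⟩ := hord g hg
    have h1 : (⟨gX C g hg, gX_mem C g hg⟩ : GG C) ^ N = 1 := by
      apply Subtype.ext
      show gX C g hg ^ N = 1
      rw [ht, pow_mul, gX_pow C hg, one_pow]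
    rw [← map_pow, h1, map_one]
  | one => exact (by rw [show (⟨1, (GG C).one_mem⟩ : GG C) = 1 from rfl, map_one, one_pow])
  | mul x y hx hy h1 h2 =>
    have e : (⟨x * y, (GG C).mul_mem hx hy⟩ : GG C) = ⟨x, hx⟩ * ⟨y, hy⟩ := rfl
    rw [e, map_mul, mul_pow, h1, h2, one_mul]
  | inv x hx h1 =>
    have e : (⟨x⁻¹, (GG C).inv_mem hx⟩ : GG C) = (⟨x, hx⟩ : GG C)⁻¹ := rfl
    rw [e, map_inv, inv_pow, h1, inv_one]

/-- **The central extension.** -/
theorem exists_stem (C : Cert nV nx rx kc lc rp rr add idc dec o) (D : GroupData C G gG f)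
    (hτ : ∀ c : A, tau nV c ∈ GG C) (N : Nat) (hord : ∀ g, g < 2 → o g ∣ N) (hcop : Nat.Coprime (Nat.card A) N) :
    IsStemExtension (sig D) ∧ Nonempty ((sig D).ker ≃* A) := by
  refine ⟨⟨sig_surj D, ?_, ?_⟩, ?_⟩
  · intro γ hγ
    obtain ⟨c, hc⟩ := (ker_sig D γ).mp hγ
    rw [mem_center_iff]
    intro δ
    apply Subtype.ext
    show δ.1 * γ.1 = γ.1 * δ.1
    rw [hc]
    ext1 x
    exact (GG_le_Comm C δ.2).1 c x
  · intro γ hγ
    obtain ⟨c, hc⟩ := (ker_sig D γ).mp hγ
    let e := powCoprime (G := A) hcop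
    have h1 : e (e.symm c) = c := e.apply_symm_apply c
    have h2 : (e.symm c) ^ N = c := h1
    have h3 : γ = (⟨tau nV (e.symm c), hτ _⟩ : GG C) ^ N := by
      apply Subtype.ext
      show γ.1 = tau nV (e.symm c) ^ N
      rw [hc, ← tau_pow, h2]
    rw [h3]
    exact pow_mem_commutator C hord _
  · let ψ : A →* (sig D).ker :=
      { toFun := fun c => ⟨⟨tau nV c, hτ c⟩, (ker_sig D _).mpr ⟨c, rfl⟩⟩
        map_one' := by
          apply Subtype.ext
          apply Subtype.ext
          exact tau_one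
        map_mul' := by
          intro a b
          apply Subtype.ext
          apply Subtype.ext
          exact tau_mul a b }
    have hψ : Function.Bijective ψ := by
      constructor
      · intro a b hab
        have h1 : tau nV a = tau nV b := congrArg (fun x : (sig D).ker => (x : GG C).1) hab
        have h2 := congrArg (fun γ : Equiv.Perm (XX A nV) => (γ (x0 C)).2) h1
        have h3 : a * 1 = b * 1 := h2
        simpa using h3
      · rintro ⟨γ, hγ⟩
        obtain ⟨c, hc⟩ := (ker_sig D γ).mp hγ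
        refine ⟨c, Subtype.ext (Subtype.ext hc.symm)⟩
    exact ⟨(MulEquiv.ofBijective ψ hψ).symm⟩

end

end Cfsg.Agent.Lib.SchurCert.Cover
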